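import Cfsg.Agent.H308.Sy.Num
import Cfsg.Agent.H100.D2.EvenEven
import Cfsg.Agent.H100.D2.SuzBot

/-!
# S3691, F-D+2 (d), piece (IV): `O₂(K) = 1` (helper308)
-/

set_option autoImplicit false
set_option linter.unusedSectionVars false

open Module Subgroup Cfsg
open Cfsg.Agent.SignalizersComponents.Components

namespace Cfsg.Agent.H308.Sy

open Cfsg.Agent.H997.Rg Cfsg.Agent.H100.D2

universe u v w

variable {K : Type v} [Group K] [Finite K] {F : Type u} {V : Type w} [Field F] [Finite F] [AddCommGroup V] [Module F V]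
    [FiniteDimensional F V] {f n r : ℕ} {B : LinearMap.BilinForm F V} {ρ : K →* Module.End F V} {y : K}

/-- the 2-part of the centraliser of `y` -/
theorem cent_le (h : Sy f n r B ρ y)
    (hsq : ∀ {P : Subgroup K}, IsPGroup 2 P → P ≠ ⊥ → (∀ a ∈ P, y * a * y⁻¹ ∈ P) → Nat.card P ^ 2 ≤ 2 ^ (f * n))
    (C : Subgroup K) (hC : C ≤ centralizer ({y} : Set K)) : 2 * (Nat.card C).factorization 2 ≤ f * n := by
  have := Fact.mk Nat.prime_two
  obtain ⟨P⟩ : Nonempty (Sylow 2 C) := inferInstance
  have hPc : Nat.card P = 2 ^ (Nat.card C).factorization 2 := P.card_eq_multiplicity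
  set P' : Subgroup K := (P : Subgroup C).map C.subtype with hP'
  have hc : Nat.card P' = 2 ^ (Nat.card C).factorization 2 := by
    rw [hP', Subgroup.card_map_of_injective C.subtype_injective]
    exact hPc
  by_cases hb : P' = ⊥
  · rw [hb, Subgroup.card_bot] at hc
    have h1 : (Nat.card C).factorization 2 = 0 := by
      by_contra h0
      have := Nat.one_lt_two_pow h0
      omega
    omega
  · have h1 := hsq (P := P') (P.isPGroup'.map _) hb (by
      rintro _ ⟨a, ha, rfl⟩
      have h2 := mem_centralizer_singleton_iff.1 (hC a.2)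
      have h3 : y * (C.subtype a) * y⁻¹ = C.subtype a := by
        change y * (a : K) * y⁻¹ = (a : K)
        rw [← h2]; group
      rw [h3]
      exact ⟨a, ha, rfl⟩)
    rw [hc, ← pow_mul] at h1
    have := (Nat.pow_le_pow_iff_right (by norm_num)).1 h1
    omega

/-- **`O₂(K) = 1` is impossible** -/
theorem core_bot_of (hJ : OutJ1.{v}) (h : Sy f n r B ρ y)
    (hsq : ∀ {P : Subgroup K}, IsPGroup 2 P → P ≠ ⊥ → (∀ a ∈ P, y * a * y⁻¹ ∈ P) → Nat.card P ^ 2 ≤ 2 ^ (f * n))
    (hA : pCore 2 K = ⊥)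
    (hsuz : ∀ {L : Subgroup K}, IsComponent L → L.Normal → y ∈ L → ∀ {b : ℕ}, Odd b → 4 * b = f * n →
      Nat.card (↥L ⧸ center ↥L) = (2 ^ b) ^ 2 * ((2 ^ b) ^ 2 + 1) * (2 ^ b - 1) →
      (Nat.card K).factorization 2 ≤ (Nat.card (centralizer (L : Set K))).factorization 2 + 2 * b → False) : False := by
  classical
  have hch := h.charP
  have hnt := h.nontriv
  have hltr := h.ltr
  have h18 := h.fn18
  have hr2 := h.r2
  have hf3 := h.f3
  have hn6 := h.n6
  have hr := h.hr
  have hlow := low h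
  obtain ⟨j, hj⟩ : ∃ j, n = 2 * j := by
    obtain ⟨j, hj⟩ := h.ne
    exact ⟨j, by omega⟩
  have hj3 : 3 ≤ j := by omega
  have hK : Cyc 2 K := ⟨fun s hs hs2 hsp P => h.fpf.cyc Nat.prime_two hs hs2 hsp P, Or.inl rfl⟩
  obtain ⟨e, he⟩ : ∃ e, e = f * n := ⟨_, rfl⟩
  have he2 : e = 2 * (f * j) := by rw [he, hj]; ring
  have he1 : 1 < 2 ^ e := Nat.one_lt_two_pow (by omega)
  have hN0 : Nat.card K ≠ 0 := Nat.card_pos.ne'
  set v := (Nat.card K).factorization 2 with hv
  have hdvd := h.dvd
  rw [← he] at hdvd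
  have hve : v ≤ e := by
    have h6 := fac_le (p := 2) hdvd (mul_ne_zero (by positivity) (by omega))
    rw [fac_two_pow_mul (odd_two_pow_sub (by omega))] at h6
    exact h6
  have hF := h.fpf.fit Nat.prime_two hr (by omega) hr2 h.hy (fun a ha => by
    rw [hA, Subgroup.mem_bot] at ha
    rw [ha]
    exact Commute.one_right _)
  -- the normaliser numbers
  have hncy : nc y ∣ 2 * n := by
    obtain ⟨D, hD0, hDle, hD1, hD2⟩ := h.fpf.nc_dvd Nat.prime_two hr hr2 h.hy
    rw [h.ordq] at hD2
    rw [h.dim] at hDle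
    refine hD1.trans ?_
    obtain ⟨k, rfl⟩ := hD2
    have hk : k = 1 ∨ k = 2 := by
      rcases k with _ | _ | _ | k
      · omega
      · left; rfl
      · right; rfl
      · exfalso
        have : n * 3 ≤ n * (k + 1 + 1 + 1) := Nat.mul_le_mul_left _ (by omega)
        omega
    rcases hk with rfl | rfl
    · rw [mul_one]; exact dvd_mul_left _ _
    · rw [mul_comm]
  rcases coreS Nat.prime_two hr hr2 hr2 hK y h.hy hF (hout_of hJ Nat.prime_two hr hr2 hK (by omega)) with hn |
      ⟨L, hL, hLn, hyL, hyC, hS, hd1, hd2⟩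
  · -- `⟨y⟩` normal
    have h1 := card_nc y
    rw [Subgroup.normalizer_eq_top_iff.2 hn, Subgroup.card_top] at h1
    have h2 : v = (Nat.card (centralizer ({y} : Set K))).factorization 2 + (nc y).factorization 2 := by
      rw [hv, h1, Nat.factorization_mul Nat.card_pos.ne' (nc_pos y).ne', Finsupp.add_apply]
    have h3 := cent_le h hsq _ (le_refl (centralizer ({y} : Set K)))
    have h4 : 2 ^ (nc y).factorization 2 ∣ 4 * j := by
      refine (Nat.ordProj_dvd (nc y) 2).trans ?_
      rw [show 4 * j = 2 * n by omega]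
      exact hncy
    have h5 := num_i hf3 hj3 h4
    rw [← he] at hlow h3
    have h6 : 2 ^ v ≤ 2 ^ (f * j) * 2 ^ (nc y).factorization 2 := by
      rw [h2, pow_add]
      apply Nat.mul_le_mul_right
      exact Nat.pow_le_pow_right (by norm_num) (by omega)
    have h7 : 2 ^ (f * j) * 2 ^ (f * j) ≤ 2 ^ (f * j) * (4 * f * (2 ^ f + 1) * 2 ^ (nc y).factorization 2) := by
      calc 2 ^ (f * j) * 2 ^ (f * j) = 2 ^ e := by rw [he2, ← pow_add]; congr 1; ring
        _ ≤ 4 * f * (2 ^ f + 1) * 2 ^ v := hlow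
        _ ≤ 4 * f * (2 ^ f + 1) * (2 ^ (f * j) * 2 ^ (nc y).factorization 2) := Nat.mul_le_mul_left _ h6
        _ = _ := by ring
    have h8 := Nat.le_of_mul_le_mul_left h7 (by positivity)
    omega
  · have hsimple : IsSimpleGroup (↥L ⧸ center ↥L) := hL.2.2
    have hnc' := not_comm_of (quasisimple_quot_not_solvable hL.2)
    have hrS := dvd_card_quot hr h.hy hyL hyC
    have hZ := center_bot hnc'
    set S := (↥L ⧸ center ↥L) with hSdef
    have hCn : (centralizer (L : Set K)).Normal := inferInstance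
    have hord : orderOf ((2 : ℕ) : ZMod r) = e := by rw [h.ord, he]
    have hr_dvd : ∀ m : ℕ, r ∣ 2 ^ m - 1 → e ∣ m := by
      intro m hm
      rw [← hord]
      apply orderOf_dvd_of_pow_eq_one
      have h2 := (Nat.modEq_iff_dvd' (Nat.one_le_two_pow (n := m))).2 hm
      have h3 := (ZMod.natCast_eq_natCast_iff _ _ _).2 h2
      push_cast at h3
      push_cast
      exact h3.symm
    have hSK : Nat.card S ∣ Nat.card K := (dvd_mul_right _ _).trans hd2
    have hodd_dvd : ∀ m : ℕ, Nat.Coprime 2 m → m ∣ Nat.card S → m ∣ 2 ^ e - 1 := by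
      intro m hm hd
      exact Nat.Coprime.dvd_of_dvd_mul_left (Nat.Coprime.pow_left e hm).symm ((hd.trans hSK).trans hdvd)
    have hvle : v ≤ (Nat.card (centralizer (L : Set K))).factorization 2 + (Nat.card (MulAut S)).factorization 2 := by
      have h6 := fac_le (p := 2) hd1 (mul_ne_zero Nat.card_pos.ne' Nat.card_pos.ne')
      rwa [Nat.factorization_mul Nat.card_pos.ne' Nat.card_pos.ne', Finsupp.add_apply] at h6
    rcases hS with hS | hS | hS | hS | hS
    · -- L₂(2^b)
      obtain ⟨F', iF, iF', b, hF', h4, ⟨e'⟩⟩ := hS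
      obtain ⟨h5, h6, _⟩ := psl2_data hZ Nat.prime_two hF' h4 e'
      have hb0 : b ≠ 0 := by rintro rfl; rw [pow_zero] at h4; omega
      have hg : Nat.gcd 2 (2 ^ b - 1) = 1 := (Nat.Prime.coprime_iff_not_dvd Nat.prime_two).2 (odd_two_pow_sub hb0)
      rw [hg, mul_one] at h6
      rw [← pow_mul] at h5 h6
      have hcop : Nat.Coprime 2 (2 ^ (b * 2) - 1) :=
        (Nat.Prime.coprime_iff_not_dvd Nat.prime_two).2 (odd_two_pow_sub (by omega))
      have h7 : e ∣ b * 2 := by
        apply hr_dvd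
        rw [h6] at hrS
        refine ((Nat.Prime.dvd_mul hr).1 hrS).resolve_left fun h8 => hr2 ?_
        exact (Nat.prime_dvd_prime_iff_eq hr Nat.prime_two).1 (hr.dvd_of_dvd_pow h8)
      have h8 : 2 ^ (b * 2) - 1 ∣ 2 ^ e - 1 := hodd_dvd _ hcop (by rw [h6]; exact dvd_mul_left _ _)
      have h9 : b * 2 = e := by
        apply le_antisymm _ (Nat.le_of_dvd (by omega) h7)
        have h11 := Nat.le_of_dvd (by omega) h8
        have h12 : 2 ^ (b * 2) ≤ 2 ^ e := by
          have : 1 ≤ 2 ^ (b * 2) := Nat.one_le_two_pow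
          omega
        exact (Nat.pow_le_pow_iff_right (by norm_num)).1 h12
      have hbj : b = f * j := by omega
      -- the centraliser of `L` is a 2-group
      have h10 : Nat.card (centralizer (L : Set K)) ∣ 2 ^ e := by
        have h11 : (2 ^ e - 1) * Nat.card (centralizer (L : Set K)) ∣ (2 ^ e - 1) * 2 ^ e := by
          rw [mul_comm (2 ^ e - 1) (2 ^ e)]
          refine dvd_trans ?_ (hd2.trans hdvd)
          rw [h6, h9, mul_assoc]
          exact dvd_mul_left _ _
        exact Nat.dvd_of_mul_dvd_mul_left (by omega) h11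
      have h11 : centralizer (L : Set K) = ⊥ := by
        rw [← le_bot_iff, ← hA]
        refine Cfsg.Agent.Lib.Cores.le_pCore hCn ?_
        obtain ⟨k, _, hk⟩ := (Nat.dvd_prime_pow Nat.prime_two).1 h10
        exact IsPGroup.of_card hk
      have h12 : (Nat.card (centralizer (L : Set K))).factorization 2 = 0 := by
        rw [h11, Subgroup.card_bot]; simp
      have h13 : (Nat.card (MulAut S)).factorization 2 = b.factorization 2 + b := by
        rw [h5, Nat.factorization_mul hb0 (mul_ne_zero (by positivity) (by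
          have := odd_two_pow_sub (b := b * 2) (by omega)
          intro h0; rw [h0] at this; exact this (dvd_zero _))), Finsupp.add_apply,
          fac_two_pow_mul (odd_two_pow_sub (by omega))]
      have h14 : 2 ^ v ≤ 2 ^ (f * j) * 2 ^ b.factorization 2 := by
        rw [← pow_add]
        apply Nat.pow_le_pow_right (by norm_num)
        rw [h12, h13, zero_add] at hvle
        omega
      have h15 := num_ii hf3 hj3 (a := b.factorization 2) (by rw [← hbj]; exact Nat.ordProj_dvd b 2)
      rw [← he] at hlow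
      have h16 : 2 ^ (f * j) * 2 ^ (f * j) ≤ 2 ^ (f * j) * (4 * f * (2 ^ f + 1) * 2 ^ b.factorization 2) := by
        calc 2 ^ (f * j) * 2 ^ (f * j) = 2 ^ e := by rw [he2, ← pow_add]; congr 1; ring
          _ ≤ 4 * f * (2 ^ f + 1) * 2 ^ v := hlow
          _ ≤ 4 * f * (2 ^ f + 1) * (2 ^ (f * j) * 2 ^ b.factorization 2) := Nat.mul_le_mul_left _ h14
          _ = _ := by ring
      have h17 := Nat.le_of_mul_le_mul_left h16 (by positivity)
      omega
    · -- L₂(l)
      obtain ⟨F', iF, iF', hpr, hne, h5, ⟨e'⟩⟩ := hS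
      obtain ⟨h6, h6', _⟩ := psl2_data hZ (l := Fintype.card F') (b := 1) hpr (by rw [pow_one]) (by rw [pow_one]; omega) e'
      rw [pow_one] at h6'
      obtain ⟨l, hl⟩ : ∃ l, l = Fintype.card F' := ⟨_, rfl⟩
      rw [← hl] at h6' hpr hne h5
      obtain ⟨u, w', i, hu, huv, hi⟩ := exists_split (L := ↥L) (l := l) hpr (cyc_sub hpr (hK.cyc _ hpr hne hne) L) hl.symm e'
      have hu' : orderOf (u : K) = l := by rw [Subgroup.orderOf_coe]; exact hu
      have h7 : (w' : K) * u * (w' : K)⁻¹ = (u : K) ^ i := congrArg Subtype.val huv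
      have h8 := dvd_nc hu' h7
      obtain ⟨D, hD0, hDle, hD1, hD2⟩ := h.fpf.nc_dvd Nat.prime_two (y := (u : K)) hpr hne hu'
      rw [h.dim] at hDle
      have hw0 : orderOf (i : ZMod l) ≤ 2 * n := (Nat.le_of_dvd hD0 (h8.trans hD1)).trans hDle
      have hwl : orderOf (i : ZMod l) ∣ l - 1 := by
        have := Fact.mk hpr
        apply ZMod.orderOf_dvd_card_sub_one
        intro h0
        rw [h0, orderOf_zero] at hi
        omega
      have hrl : r = l ∨ 2 * r ≤ l + 1 := by
        have h9 : r ∣ l * (l ^ 2 - 1) := by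
          rw [← h6']
          exact hrS.trans (dvd_mul_right _ _)
        have h10 : l ^ 2 - 1 = (l - 1) * (l + 1) := by
          have := Nat.sq_sub_sq l 1
          rw [one_pow] at this
          rw [this, mul_comm]
        have hlodd : Odd l := hpr.odd_of_ne_two hne
        have hrodd : Odd r := hr.odd_of_ne_two hr2
        rcases (Nat.Prime.dvd_mul hr).1 h9 with h11 | h11
        · left; exact (Nat.prime_dvd_prime_iff_eq hr hpr).1 h11
        · right
          rw [h10] at h11
          have key : ∀ x : ℕ, Even x → 0 < x → r ∣ x → 2 * r ≤ x := by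
            intro x hx hx0 hrx
            apply Nat.le_of_dvd hx0
            exact (Nat.Coprime.mul_dvd_of_dvd_of_dvd (Nat.Coprime.symm hrodd.coprime_two_right) (even_iff_two_dvd.1 hx) hrx)
          obtain ⟨c, hc⟩ := hlodd
          rcases (Nat.Prime.dvd_mul hr).1 h11 with h12 | h12
          · have := key (l - 1) ⟨c, by omega⟩ (by omega) h12
            omega
          · exact key (l + 1) ⟨c + 1, by omega⟩ (by omega) h12
      refine num_iii hf3 hn6 h.ne hr h.ord hpr hrl hwl hi hw0 ?_
      intro hlr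
      refine (h8.trans hD1).trans ?_
      rw [hlr, h.ordq] at hD2
      obtain ⟨k, rfl⟩ := hD2
      have hk : k = 1 ∨ k = 2 := by
        rcases k with _ | _ | _ | k
        · omega
        · left; rfl
        · right; rfl
        · exfalso
          have : n * 3 ≤ n * (k + 1 + 1 + 1) := Nat.mul_le_mul_left _ (by omega)
          omega
      rcases hk with rfl | rfl
      · rw [mul_one]; exact dvd_mul_left _ _
      · rw [mul_comm]
    · -- Suzuki
      obtain ⟨_, hS⟩ := hS
      obtain ⟨b, hbo, hb3, hcs, ho⟩ := suz_data hZ hS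
      have hodd1 : ¬ 2 ∣ ((2 ^ b) ^ 2 + 1) * (2 ^ b - 1) := by
        intro h2
        have he' : 2 ∣ 2 ^ b := dvd_pow_self 2 (by omega)
        have h1 : 1 ≤ 2 ^ b := Nat.one_le_two_pow
        rcases (Nat.Prime.dvd_mul Nat.prime_two).1 h2 with h3 | h3
        · have h4 : 2 ∣ (2 ^ b) ^ 2 := dvd_pow he' two_ne_zero
          omega
        · omega
      have h1 : Nat.card S = 2 ^ (b * 2) * (((2 ^ b) ^ 2 + 1) * (2 ^ b - 1)) := by
        rw [hcs, pow_mul]; ring
      have hb2 : ¬ 2 ∣ b := by rw [← even_iff_two_dvd, Nat.not_even_iff_odd]; exact hbo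
      have h2 : (Nat.card (MulAut S)).factorization 2 = b * 2 := by
        rw [card_mulAut hZ, ho, h1, mul_assoc]
        apply fac_two_pow_mul
        intro h2
        rcases (Nat.Prime.dvd_mul Nat.prime_two).1 h2 with h3 | h3
        · exact hodd1 h3
        · exact hb2 h3
      have h3 : r ∣ ((2 ^ b) ^ 2 + 1) * (2 ^ b - 1) := by
        rw [h1] at hrS
        refine ((Nat.Prime.dvd_mul hr).1 hrS).resolve_left fun h8 => hr2 ?_
        exact (Nat.prime_dvd_prime_iff_eq hr Nat.prime_two).1 (hr.dvd_of_dvd_pow h8)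
      have h4 : ((2 ^ b) ^ 2 + 1) * (2 ^ b - 1) ∣ 2 ^ (4 * b) - 1 := by
        obtain ⟨z, hz⟩ : ∃ z, 2 ^ b = z + 1 := ⟨2 ^ b - 1, by have : 1 ≤ 2 ^ b := Nat.one_le_two_pow; omega⟩
        refine ⟨z + 2, ?_⟩
        rw [mul_comm 4 b, pow_mul, hz, Nat.add_sub_cancel]
        apply Nat.sub_eq_of_eq_add
        ring
      have h5 : e ∣ 4 * b := hr_dvd _ (h3.trans h4)
      have h6 : ((2 ^ b) ^ 2 + 1) * (2 ^ b - 1) ∣ 2 ^ e - 1 :=
        hodd_dvd _ ((Nat.Prime.coprime_iff_not_dvd Nat.prime_two).2 hodd1) (by rw [h1]; exact dvd_mul_left _ _)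
      have h7 : e = 4 * b := by
        obtain ⟨w, hw⟩ := h5
        have h11 := Nat.le_of_dvd (by omega) h6
        have h12 : 2 ^ (2 * b) < 2 ^ e := by
          have h13 : 2 ^ (2 * b) = (2 ^ b) ^ 2 := by rw [mul_comm, pow_mul]
          have h14 : 2 ≤ 2 ^ b := by
            calc 2 = 2 ^ 1 := rfl
              _ ≤ 2 ^ b := Nat.pow_le_pow_right two_pos (by omega)
          have h15 : ((2 ^ b) ^ 2 + 1) * 1 ≤ ((2 ^ b) ^ 2 + 1) * (2 ^ b - 1) := Nat.mul_le_mul_left _ (by omega)
          omega
        have h13 : 2 * b < e := (Nat.pow_lt_pow_iff_right (by norm_num)).1 h12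
        rcases w with _ | _ | w
        · omega
        · omega
        · exfalso
          have : e * (w + 1 + 1) = e * w + 2 * e := by ring
          omega
      refine hsuz hL hLn hyL hbo (by rw [← he]; exact h7.symm) hcs ?_
      rw [h2] at hvle
      omega
    · -- J₁
      obtain ⟨_, hS⟩ := hS
      have h1 : Nat.card S = 175560 := hS.2
      rw [h1] at hrS hSK
      exact num_j hr hord (by omega) hrS (hSK.trans hdvd)
    · exact hS.1 rfl

end Cfsg.Agent.H308.Sy
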