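import Cfsg.Agent.H308.Sy.Bot
import Cfsg.Agent.H997.Rg.SyB
import Cfsg.Agent.H376.Rg997.Suz

/-!
# S3691, F-D+2 (d), piece (IV): final form (helper308)
-/

set_option autoImplicit false

open Module Subgroup Cfsg

namespace Cfsg.Agent.H308.Sy

open Cfsg.Agent.H997.Rg Cfsg.Agent.H100.D2

universe u v w

variable {K : Type v} [Group K] [Finite K] {F : Type u} {V : Type w} [Field F] [Finite F] [AddCommGroup V] [Module F V]
    [FiniteDimensional F V] {f n r : ℕ} {B : LinearMap.BilinForm F V} {ρ : K →* Module.End F V} {y : K}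

theorem core_bot (hJ : OutJ1.{v}) (h : Sy f n r B ρ y) (hA : pCore 2 K = ⊥) : False :=
  core_bot_of hJ h (fun hP hP1 hn => h.sq_le hP hP1 hn) hA fun hL hLn hyL _ hbo hb hcard hd =>
    suz_bot_of h h.par h.emb (@Cfsg.Agent.H376.Rg997.suz_small) hA hL hLn hyL hbo hb hcard hd

end Cfsg.Agent.H308.Sy
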